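import Cfsg.Agent.Lib.AvoidConj.Split

/-!
Half-transitive actions of `p`-groups on finite abelian groups: basic facts.
-/

set_option autoImplicit false

namespace Cfsg.Agent.Lib.HalfTransP

open Cfsg.Agent.Lib.AvoidConj

universe u v

variable {G : Type u} [Group G] {V : Type v} [AddCommGroup V]

/-- The stabiliser of a vector. -/
def stab (ρ : G →* AddMonoid.End V) (v : V) : Subgroup G where
  carrier := {g | ρ g v = v}
  one_mem' := by
    show ρ 1 v = v
    rw [map_one]; rfl
  mul_mem' {a b} ha hb := by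
    show ρ (a * b) v = v
    rw [map_mul]
    show ρ a (ρ b v) = v
    rw [hb, ha]
  inv_mem' {a} ha := by
    show ρ a⁻¹ v = v
    conv_lhs => rw [← ha]
    show (ρ a⁻¹ * ρ a) v = v
    rw [← map_mul, inv_mul_cancel, map_one]; rfl

theorem mem_stab {ρ : G →* AddMonoid.End V} {v : V} {g : G} : g ∈ stab ρ v ↔ ρ g v = v := Iff.rfl

/-- All stabilisers of nonzero vectors are trivial. -/
def Semi (ρ : G →* AddMonoid.End V) : Prop := ∀ v : V, v ≠ 0 → ∀ g : G, ρ g v = v → g = 1

variable [Finite G] [Finite V] (ρ : G →* AddMonoid.End V) {p : ℕ} [hp : Fact p.Prime]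

theorem semi_of_card_one {s : ℕ} (hhalf : ∀ v : V, v ≠ 0 → Nat.card (stab ρ v) = s) (hs : s = 1) : Semi ρ :=
  fun v hv g hg => by
    have h := Subgroup.eq_bot_of_card_eq _ ((hhalf v hv).trans hs)
    exact Subgroup.mem_bot.1 (h ▸ mem_stab.2 hg)

/-- If a stabiliser fixes every vector, all stabilisers are trivial. -/
theorem semi_of_fixes_all {s : ℕ} (hinj : ∀ g : G, ρ g = 1 → g = 1)
    (hhalf : ∀ v : V, v ≠ 0 → Nat.card (stab ρ v) = s) {v : V} (hv : v ≠ 0)
    (h : ∀ g ∈ stab ρ v, ∀ x : V, ρ g x = x) : Semi ρ := by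
  refine semi_of_card_one ρ hhalf ?_
  rw [← hhalf v hv, Subgroup.card_eq_one, Subgroup.eq_bot_iff_forall]
  exact fun g hg => hinj g (AddMonoidHom.ext (h g hg))

/-- The sum of the powers of an element. -/
def lineSum (p : ℕ) (ρ : G →* AddMonoid.End V) (y : G) (v : V) : V :=
  ∑ k ∈ Finset.range p, ρ (y ^ k) v

theorem lineSum_add (y : G) (v w : V) : lineSum p ρ y (v + w) = lineSum p ρ y v + lineSum p ρ y w := by
  simp only [lineSum, map_add, Finset.sum_add_distrib]

theorem lineSum_of_fixed {y : G} {v : V} (h : ρ y v = v) : lineSum p ρ y v = p • v := by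
  rw [lineSum, Finset.sum_congr rfl (fun k _ => fixed_pow ρ h k), Finset.sum_const, Finset.card_range]

theorem lineSum_fixed {y : G} (hy : y ^ p = 1) (v : V) : ρ y (lineSum p ρ y v) = lineSum p ρ y v :=
  sum_range_pow_fixed ρ hy v

variable {b z : G}

theorem line_pow (hbz : Commute b z) (hb : b ^ p = 1) (hz : z ^ p = 1) (i : ℕ) : (b * z ^ i) ^ p = 1 := by
  rw [(hbz.pow_right i).mul_pow, hb, ← pow_mul, mul_comm i p, pow_mul, hz, one_pow, one_mul]

/-- The line sum of one line kills the fixed points of another. -/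
theorem lineSum_kill (hbz : Commute b z) (hb : b ^ p = 1) (hz : z ^ p = 1)
    (hfree : ∀ w : V, ρ z w = w → w = 0) {i j : ℕ} (hij : ¬ i ≡ j [MOD p]) {w : V}
    (hw : ρ (b * z ^ j) w = w) : lineSum p ρ (b * z ^ i) w = 0 := by
  have hcomm : Commute (b * z ^ j) (b * z ^ i) :=
    ((Commute.refl b).mul_left (hbz.symm.pow_left _)).mul_right
      ((hbz.pow_right _).mul_left (Commute.pow_pow rfl _ _))
  set t := lineSum p ρ (b * z ^ i) w with ht
  have h1 : ρ (b * z ^ j) t = t := by
    rw [ht, lineSum, map_sum]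
    refine Finset.sum_congr rfl fun k _ => ?_
    rw [← rho_mul, (hcomm.pow_right k).eq, rho_mul, hw]
  have h2 : ρ (b * z ^ i) t = t := lineSum_fixed ρ (line_pow hbz hb hz i) w
  have h3 : ρ (z ^ j) t = ρ (z ^ i) t := by
    have h4 : ρ b (ρ (z ^ j) t) = ρ b (ρ (z ^ i) t) := by rw [← rho_mul, ← rho_mul, h1, h2]
    have := congrArg (ρ b⁻¹) h4
    rwa [rho_inv_cancel, rho_inv_cancel] at this
  have hfix : ρ (z ^ (j + (p * i - i))) t = t := by
    rw [add_comm j, pow_add, rho_mul, h3, ← rho_mul, ← pow_add,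
      Nat.sub_add_cancel (Nat.le_mul_of_pos_left i hp.out.pos), pow_mul, hz, one_pow, rho_one]
  have hnd : ¬ p ∣ j + (p * i - i) := by
    intro hd
    apply hij
    have h5 : j + (p * i - i) + i = j + p * i := by
      have := Nat.le_mul_of_pos_left i hp.out.pos
      omega
    have h6 : j + (p * i - i) ≡ 0 [MOD p] := Nat.modEq_zero_iff_dvd.2 hd
    have h7 := h6.add_right i
    rw [h5, zero_add] at h7
    have h8 : j + p * i ≡ j [MOD p] := by
      simpa using (Nat.modEq_zero_iff_dvd.2 (dvd_mul_right p i)).add_left j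
    exact (h8.symm.trans h7).symm
  obtain ⟨n, hn⟩ := Nat.exists_mul_mod_eq_one_of_coprime
    ((hp.out.coprime_iff_not_dvd.2 hnd).symm) hp.out.one_lt
  apply hfree
  have := fixed_pow ρ hfix n
  rwa [← pow_mul, pow_eq_pow_mod _ hz, hn.2, pow_one] at this

/-- An element fixing the fixed points of all lines fixes everything. -/
theorem fixes_of_lines (hcop : p.Coprime (Nat.card V)) (hbz : Commute b z) (hb : b ^ p = 1) (hz : z ^ p = 1)
    (hfree : ∀ w : V, ρ z w = w → w = 0) {g : G}
    (h : ∀ i < p, ∀ w : V, ρ (b * z ^ i) w = w → ρ g w = w) (v : V) : ρ g v = v := by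
  have hid := line_identity ρ hbz hb hz v
  have hSe : ∑ k ∈ Finset.range p, ρ (z ^ k) v = 0 := hfree _ (sum_range_pow_fixed ρ hz v)
  rw [hSe] at hid
  simp only [map_zero, Finset.sum_const_zero, add_zero] at hid
  have h1 : ρ g (p • v) = p • v := by
    rw [← hid, map_sum]
    exact Finset.sum_congr rfl fun i hi =>
      h i (Finset.mem_range.1 hi) _ (sum_range_pow_fixed ρ (line_pow hbz hb hz i) v)
  rw [map_nsmul] at h1
  exact sub_eq_zero.1 (nsmul_cancel_of_coprime hcop (by rw [nsmul_sub, h1, sub_self]))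

/-- A power of two that is one more, or one less, than a power of an odd number. -/
theorem pow_add_one_two {q k M : ℕ} (hq : 3 ≤ q) (hodd : Odd q) (hk : 1 ≤ k) (h : q ^ k + 1 = 2 ^ M) : k = 1 := by
  rcases Nat.even_or_odd k with ⟨t, ht⟩ | hko
  · exfalso
    obtain ⟨a, ha⟩ := hodd.pow (n := t)
    rw [ht, pow_add, ha] at h
    have h2 : 2 ≤ 2 ^ M := by
      have : 1 ≤ (2 * a + 1) * (2 * a + 1) := Nat.one_le_iff_ne_zero.2 (by positivity)
      omega
    rcases M with _ | _ | M
    · simp at h2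
    · have : 3 ≤ q ^ t := hq.trans (Nat.le_self_pow (by omega) q)
      rw [ha] at this
      norm_num at h
      nlinarith
    · have h4 : 2 ^ (M + 1 + 1) = 4 * 2 ^ M := by ring
      rw [h4] at h
      ring_nf at h
      omega
  · have hdvd : q + 1 ∣ q ^ k + 1 := by simpa using hko.nat_add_dvd_pow_add_pow q 1
    obtain ⟨m, hm⟩ := hdvd
    obtain ⟨i, hi, rfl⟩ := (Nat.dvd_prime_pow Nat.prime_two).1 (Dvd.intro_left (q + 1) (hm.symm.trans h))
    rcases i with _ | i
    · rw [pow_zero, mul_one] at hm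
      have : q ^ k = q ^ 1 := by rw [pow_one]; omega
      exact Nat.pow_right_injective (by omega) this
    · exfalso
      -- the cofactor is odd
      have hmod : ((q ^ k + 1 : ℕ) : ℤ) = ((q : ℤ) + 1) * (∑ j ∈ Finset.range k, (-(q : ℤ)) ^ j) := by
        have h1 := geom_sum_mul (-(q : ℤ)) k
        rw [hko.neg_pow] at h1
        push_cast
        linear_combination h1
      have hq1 : ((q : ℤ) + 1) ≠ 0 := by positivity
      have hS : (∑ j ∈ Finset.range k, (-(q : ℤ)) ^ j) = ((2 ^ (i + 1) : ℕ) : ℤ) := by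
        refine mul_left_cancel₀ hq1 ?_
        rw [← hmod, hm]; push_cast; ring
      have hz2 := congrArg (fun t : ℤ => (t : ZMod 2)) hS
      obtain ⟨a, rfl⟩ := hodd
      obtain ⟨b, rfl⟩ := hko
      have e2 : ((2 : ℕ) : ZMod 2) = 0 := ZMod.natCast_self 2
      push_cast at hz2 e2
      simp only [e2, zero_mul, zero_add, ZMod.neg_eq_self_mod_two, one_pow, Finset.sum_const, Finset.card_range,
        nsmul_eq_mul, mul_one, pow_succ, mul_zero] at hz2
      push_cast at hz2
      rw [e2, zero_mul, zero_add] at hz2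
      exact one_ne_zero hz2

theorem pow_sub_one_two {q k a : ℕ} (hq : 3 ≤ q) (hodd : Odd q) (hk : 1 ≤ k) (h : q ^ k = 2 ^ a + 1) :
    k = 1 ∨ (q = 3 ∧ k = 2) := by
  rcases Nat.even_or_odd k with ⟨t, ht⟩ | hko
  · right
    have ht1 : 1 ≤ t := by omega
    set r := q ^ t with hr
    have hr3 : 3 ≤ r := hq.trans (Nat.le_self_pow (by omega) q)
    have h2 : (r - 1) * (r + 1) = 2 ^ a := by
      rw [ht, pow_add, ← hr] at h
      obtain ⟨r', hr'⟩ : ∃ r', r = r' + 1 := ⟨r - 1, by omega⟩
      rw [hr'] at h ⊢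
      simp only [Nat.add_sub_cancel]
      nlinarith
    obtain ⟨i, -, hi⟩ := (Nat.dvd_prime_pow Nat.prime_two).1 (Dvd.intro _ h2)
    obtain ⟨j, -, hj⟩ := (Nat.dvd_prime_pow Nat.prime_two).1 (Dvd.intro_left _ h2)
    have hr' : r = 3 := by
      rcases i with _ | _ | i
      · simp at hi; omega
      · simp at hi; omega
      · rcases j with _ | _ | j
        · simp at hj; omega
        · simp at hj; omega
        · exfalso; rw [pow_succ, pow_succ] at hi hj; omega
    have : t = 1 := by
      by_contra h'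
      have h9 : q ^ 2 ≤ r := Nat.pow_le_pow_right (by omega) (by omega)
      nlinarith
    subst this
    rw [pow_one] at hr
    exact ⟨by omega, by omega⟩
  · left
    have h1 := Nat.sub_one_dvd_pow_sub_one q k
    have hkey : ((q ^ k - 1 : ℕ) : ℤ) = ((q : ℤ) - 1) * (∑ j ∈ Finset.range k, (q : ℤ) ^ j) := by
      rw [Nat.cast_sub (Nat.one_le_pow _ _ (by omega)), Nat.cast_pow, Nat.cast_one]
      linear_combination (-1 : ℤ) * geom_sum_mul (q : ℤ) k
    obtain ⟨m, hm⟩ := h1
    have hma : m ∣ 2 ^ a := Dvd.intro_left (q - 1) (hm.symm.trans (by rw [h, Nat.add_sub_cancel]))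
    obtain ⟨i, -, rfl⟩ := (Nat.dvd_prime_pow Nat.prime_two).1 hma
    have hS : (∑ j ∈ Finset.range k, (q : ℤ) ^ j) = ((2 ^ i : ℕ) : ℤ) := by
      refine mul_left_cancel₀ (show ((q : ℤ) - 1) ≠ 0 by omega) ?_
      rw [← hkey, hm, Nat.cast_mul, Nat.cast_sub (by omega : 1 ≤ q), Nat.cast_one]
    rcases i with _ | i
    · rw [pow_zero, mul_one] at hm
      have : q ^ k = q ^ 1 := by
        rw [pow_one]
        have := Nat.one_le_pow k q (by omega)
        omega
      exact Nat.pow_right_injective (by omega) this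
    · exfalso
      have hz2 := congrArg (fun t : ℤ => (t : ZMod 2)) hS
      obtain ⟨a', rfl⟩ := hodd
      obtain ⟨b', rfl⟩ := hko
      have e2 : ((2 : ℕ) : ZMod 2) = 0 := ZMod.natCast_self 2
      push_cast at hz2 e2
      simp only [e2, zero_mul, zero_add, one_pow, Finset.sum_const, Finset.card_range,
        nsmul_eq_mul, mul_one, pow_succ, mul_zero] at hz2
      push_cast at hz2
      rw [e2, zero_mul, zero_add] at hz2
      exact one_ne_zero hz2

end Cfsg.Agent.Lib.HalfTransP
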