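import Cfsg.Agent.Lib.HalfTransP.Plane

/-!
The monomial case of half-transitive actions: a plane group `⟨b, z⟩` with fixed spaces of dimension one.
-/

set_option autoImplicit false

namespace Cfsg.Agent.Lib.HalfTransP

open Cfsg.Agent.Lib.AvoidConj

universe u v

variable {G : Type u} [Group G] [Finite G] {q : ℕ} [hq : Fact q.Prime] {V : Type v} [AddCommGroup V]
  [Module (ZMod q) V] [Finite V] {ρ : G →* (V ≃ₗ[ZMod q] V)} {σ : G →* AddMonoid.End V} {b z : G}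

theorem exists_ne_of_card {α : Type*} [Finite α] (h : 1 < Nat.card α) (a : α) : ∃ x : α, x ≠ a :=
  haveI := Finite.one_lt_card_iff_nontrivial.1 h
  exists_ne a

theorem monomial_form (hσ : ∀ g v, σ g v = ρ g v) (D : Plane 2 σ b z) {s : ℕ}
    (hhalf : ∀ v : V, v ≠ 0 → Nat.card (stab σ v) = s) (hns : ¬ Semi σ)
    (htrans : ∀ w w' : V, σ b w = w → w ≠ 0 → σ b w' = w' → w' ≠ 0 → ∃ g : G, g * b = b * g ∧ σ g w = w')
    (hcard : Nat.card V = q ^ 2) (hfix : Nat.card (fixedOf σ ({b} : Set G)) = q) :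
    ∃ e : V ≃ₗ[ZMod q] (Fin 2 → ZMod q), ∀ f : (Fin 2 → ZMod q) ≃ₗ[ZMod q] (Fin 2 → ZMod q),
        (∃ g : G, f = e.symm.trans ((ρ g).trans e)) ↔
        ∃ a s : ZMod q, a ≠ 0 ∧ (s = 1 ∨ s = -1) ∧
          ((∀ v, f v = ![a * v 0, s * a⁻¹ * v 1]) ∨ (∀ v, f v = ![s * a⁻¹ * v 1, a * v 0])) := by
  classical
  haveI : Fact (Nat.Prime 2) := ⟨Nat.prime_two⟩
  have hlin : ∀ (g : G) (c : ZMod q) (v : V), σ g (c • v) = c • σ g v := fun g c v => by
    rw [hσ, hσ, map_smul]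
  obtain ⟨w₀, hw0, hw00⟩ : ∃ w : V, σ b w = w ∧ w ≠ 0 := by
    obtain ⟨⟨w, hw⟩, hne⟩ := exists_ne_of_card (α := fixedOf σ ({b} : Set G))
      (hfix ▸ hq.out.one_lt) 0
    exact ⟨w, hw b rfl, fun h => hne (Subtype.ext h)⟩
  have hU0 : ∀ w : V, σ b w = w → ∃ a : ZMod q, w = a • w₀ := by
    intro w hw
    let f : ZMod q → fixedOf σ ({b} : Set G) := fun a =>
      ⟨a • w₀, fun k hk => by rw [Set.mem_singleton_iff.1 hk, hlin, hw0]⟩
    have hfi : Function.Injective f := fun a c h => smul_left_injective (ZMod q) hw00 (congrArg Subtype.val h)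
    obtain ⟨a, ha⟩ := (hfi.bijective_of_nat_card_le (by rw [hfix, Nat.card_zmod])).2
      ⟨w, fun k hk => by rw [Set.mem_singleton_iff.1 hk]; exact hw⟩
    exact ⟨a, (congrArg Subtype.val ha).symm⟩
  obtain ⟨u, hu⟩ := D.move
  set w₁ := σ u w₀ with hw1def
  have hbz : ∀ x : V, σ (b * z ^ 1) x = x → σ b (σ u⁻¹ x) = σ u⁻¹ x := fun x hx => by
    rw [← rho_mul, show b * u⁻¹ = u⁻¹ * (u * b * u⁻¹) by group, hu, rho_mul]
    rw [pow_one] at hx
    rw [hx]
  have hw1 : σ (b * z ^ 1) w₁ = w₁ := by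
    simpa using D.fixed_move (i := 0) (j := 1) (g := u) (by rw [pow_one]; exact hu) (w := w₀)
      (by rwa [pow_zero, mul_one])
  have hw10 : w₁ ≠ 0 := fun h => hw00 (by rw [← rho_inv_cancel σ u w₀, ← hw1def, h, map_zero])
  have hU1 : ∀ w : V, σ (b * z ^ 1) w = w → ∃ a : ZMod q, w = a • w₁ := fun w hw => by
    obtain ⟨a, ha⟩ := hU0 _ (hbz w hw)
    exact ⟨a, by rw [hw1def, ← hlin, ← ha, rho_cancel_inv]⟩
  -- coordinates
  have hne10 : ¬ 1 ≡ 0 [MOD 2] := by decide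
  let L : (Fin 2 → ZMod q) →ₗ[ZMod q] V :=
    { toFun := fun x => x 0 • w₀ + x 1 • w₁
      map_add' := fun x y => by simp only [Pi.add_apply, add_smul]; abel
      map_smul' := fun c x => by simp only [Pi.smul_apply, smul_eq_mul, RingHom.id_apply, smul_add, smul_smul] }
  have hind : ∀ a c : ZMod q, a • w₀ + c • w₁ = 0 → a = 0 ∧ c = 0 := by
    intro a c h
    have h1 : σ b (a • w₀) = a • w₀ := by rw [hlin, hw0]
    have h2 : σ (b * z ^ 1) (c • w₁) = c • w₁ := by rw [hlin, hw1]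
    have e := congrArg (lineSum 2 σ (b * z ^ 1)) h
    rw [lineSum_add, D.kill hne10 (w := a • w₀) (by rwa [pow_zero, mul_one]), lineSum_of_fixed σ h2, zero_add,
      lineSum_of_fixed σ (map_zero _), nsmul_zero] at e
    have hc : c • w₁ = 0 := D.nsmul_inj (by rw [e, nsmul_zero])
    rw [hc, add_zero] at h
    exact ⟨(smul_eq_zero.1 h).resolve_right hw00, (smul_eq_zero.1 hc).resolve_right hw10⟩
  have hLi : Function.Injective L := by
    rw [injective_iff_map_eq_zero]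
    intro x hx
    obtain ⟨h0, h1⟩ := hind _ _ hx
    ext i; fin_cases i <;> assumption
  have hLb : Function.Bijective L := hLi.bijective_of_nat_card_le (by
    rw [hcard, Nat.card_fun, Nat.card_zmod, Nat.card_fin])
  let e := (LinearEquiv.ofBijective L hLb).symm
  have he : ∀ x, e.symm x = x 0 • w₀ + x 1 • w₁ := fun x => rfl
  have hext : ∀ g : G, σ g w₀ = w₀ → σ g w₁ = w₁ → g = 1 := fun g h0 h1 =>
    D.inj g (AddMonoidHom.ext fun v => by
      obtain ⟨x, rfl⟩ := hLb.2 v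
      show σ g (x 0 • w₀ + x 1 • w₁) = x 0 • w₀ + x 1 • w₁
      rw [map_add, hlin, hlin, h0, h1])
  have hcases : ∀ g : G, g * b = b * g ∨ g * b * g⁻¹ = b * z ^ 1 := fun g => by
    obtain ⟨j, hj⟩ := D.conj g
    rw [D.zpow_line] at hj
    rcases Nat.mod_two_eq_zero_or_one j with h | h <;> rw [h] at hj
    · left; rw [pow_zero, mul_one] at hj; exact mul_inv_eq_iff_eq_mul.1 hj
    · exact Or.inr hj
  -- images of the two lines
  have hD0 : ∀ g : G, g * b = b * g → ∃ α β : ZMod q, α ≠ 0 ∧ σ g w₀ = α • w₀ ∧ σ g w₁ = β • w₁ := fun g hg => by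
    have hj : g * b * g⁻¹ = b * z ^ 0 := by rw [hg, pow_zero, mul_one, mul_inv_cancel_right]
    obtain ⟨α, hα⟩ := hU0 (σ g w₀) (by rw [← rho_mul, ← hg, rho_mul, hw0])
    obtain ⟨β, hβ⟩ := hU1 (σ g w₁) (by simpa using D.fixed_move hj hw1)
    exact ⟨α, β, fun h => hw00 (by rw [← rho_inv_cancel σ g w₀, hα, h, zero_smul, map_zero]), hα, hβ⟩
  have hA0 : ∀ g : G, g * b * g⁻¹ = b * z ^ 1 →
      ∃ α β : ZMod q, α ≠ 0 ∧ σ g w₀ = α • w₁ ∧ σ g w₁ = β • w₀ := fun g hg => by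
    obtain ⟨α, hα⟩ := hU1 (σ g w₀) (by simpa using D.fixed_move (i := 0) hg (w := w₀) (by rwa [pow_zero, mul_one]))
    obtain ⟨β, hβ⟩ := hU0 (σ g w₁) (by
      have h := D.fixed_move hg hw1
      rwa [show (1 + 1 : ℕ) = 2 from rfl, D.zp, mul_one] at h)
    exact ⟨α, β, fun h => hw00 (by rw [← rho_inv_cancel σ g w₀, hα, h, zero_smul, map_zero]), hα, hβ⟩
  have hK : ∀ g : G, σ g w₀ = w₀ → g * b = b * g := fun g hg => D.stab_comm hw0 hw00 hg
  have hs2 : 2 ≤ s := by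
    by_contra h
    refine hns (semi_of_card_one σ hhalf ?_)
    have := hhalf w₀ hw00
    have hpos : 0 < Nat.card (stab σ w₀) := Nat.card_pos
    omega
  have hfixsum : ∀ (c : ZMod q), c ≠ 0 → ∀ g : G, g * b = b * g → σ g (w₀ + c • w₁) = w₀ + c • w₁ → g = 1 := by
    intro c hc g hg h
    obtain ⟨h0, h1⟩ := D.split (i := 1) hg (by decide) hw0 (by rw [hlin, hw1]) h
    rw [hlin] at h1
    exact hext g h0 (smul_right_injective V hc h1)
  have hne0 : ∀ c : ZMod q, w₀ + c • w₁ ≠ 0 := fun c h => one_ne_zero (hind 1 c (by rwa [one_smul])).1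
  -- swaps
  have hswap : ∀ c : ZMod q, c ≠ 0 → ∃ g : G, σ g w₀ = c • w₁ ∧ σ g w₁ = c⁻¹ • w₀ := by
    intro c hc
    obtain ⟨⟨g, hg⟩, hg1⟩ := exists_ne_of_card (α := stab σ (w₀ + c • w₁))
      (by rw [hhalf _ (hne0 c)]; omega) 1
    rcases hcases g with h | h
    · exact absurd (Subtype.ext (hfixsum c hc g h hg)) hg1
    obtain ⟨α, β, -, hα, hβ⟩ := hA0 g h
    refine ⟨g, ?_⟩
    have e : σ g (w₀ + c • w₁) = w₀ + c • w₁ := hg
    rw [map_add, hlin, hα, hβ, smul_smul] at e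
    obtain ⟨h0, h1⟩ := hind (c * β - 1) (α - c) (by
      rw [sub_smul, sub_smul, one_smul]
      calc (c * β) • w₀ - w₀ + (α • w₁ - c • w₁) = (α • w₁ + (c * β) • w₀) - (w₀ + c • w₁) := by abel
        _ = 0 := sub_eq_zero.2 e)
    refine ⟨by rw [hα, sub_eq_zero.1 h1], ?_⟩
    rw [hβ, eq_inv_of_mul_eq_one_right (sub_eq_zero.1 h0)]
  obtain ⟨y, hy0, hy1⟩ := hswap 1 one_ne_zero
  rw [one_smul] at hy0
  rw [inv_one, one_smul] at hy1
  have hdiag : ∀ c : ZMod q, c ≠ 0 → ∃ g : G, σ g w₀ = c • w₀ ∧ σ g w₁ = c⁻¹ • w₁ := fun c hc => by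
    obtain ⟨g, hg0, hg1⟩ := hswap c hc
    exact ⟨y * g, by rw [rho_mul, hg0, hlin, hy1], by rw [rho_mul, hg1, hlin, hy0]⟩
  -- the stabiliser of `w₀` has order two
  have hle2 : s ≤ 2 := by
    rw [← hhalf _ (hne0 1)]
    have key : ∀ g ∈ stab σ (w₀ + (1 : ZMod q) • w₁), g = 1 ∨ g = y := by
      intro g hg
      rcases hcases g with h | h
      · exact Or.inl (hfixsum 1 one_ne_zero g h hg)
      · right
        obtain ⟨α, β, -, hα, hβ⟩ := hA0 g h
        have e : σ g (w₀ + (1 : ZMod q) • w₁) = w₀ + (1 : ZMod q) • w₁ := hg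
        rw [map_add, hlin, hα, hβ, one_smul, one_smul] at e
        obtain ⟨h0, h1⟩ := hind (β - 1) (α - 1) (by
          rw [sub_smul, sub_smul, one_smul, one_smul]
          calc β • w₀ - w₀ + (α • w₁ - w₁) = (α • w₁ + β • w₀) - (w₀ + w₁) := by abel
            _ = 0 := sub_eq_zero.2 e)
        refine (inv_mul_eq_one.1 (hext (y⁻¹ * g) ?_ ?_)).symm
        · rw [rho_mul, hα, sub_eq_zero.1 h1, one_smul, ← hy0, rho_inv_cancel]
        · rw [rho_mul, hβ, sub_eq_zero.1 h0, one_smul, ← hy1, rho_inv_cancel]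
    calc Nat.card (stab σ (w₀ + (1 : ZMod q) • w₁)) ≤ Nat.card (({1, y} : Finset G) : Set G) :=
          Nat.card_le_card_of_injective (fun g => ⟨g.1, by simpa using key g.1 g.2⟩)
            (fun a c h => Subtype.ext (congrArg Subtype.val h :))
      _ ≤ 2 := by rw [Nat.card_coe_set_eq, Set.ncard_coe_finset]; exact Finset.card_le_two
  have hsq : ∀ g : G, σ g w₀ = w₀ → ∀ β : ZMod q, σ g w₁ = β • w₁ → β = 1 ∨ β = -1 := by
    intro g hg β hβ
    have h2 : g ^ 2 = 1 := by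
      have h := pow_card_eq_one' (G := stab σ w₀) (x := ⟨g, hg⟩)
      rw [hhalf _ hw00, show s = 2 by omega] at h
      exact congrArg Subtype.val h
    have h3 : σ (g ^ 2) w₁ = (β * β) • w₁ := by rw [pow_two, rho_mul, hβ, hlin, hβ, smul_smul]
    rw [h2, rho_one] at h3
    exact mul_self_eq_one_iff.1 (smul_left_injective (ZMod q) hw10 (h3.symm.trans (one_smul _ _).symm))
  have hdiag' : ∀ c t : ZMod q, c ≠ 0 → (t = 1 ∨ t = -1) →
      ∃ g : G, σ g w₀ = c • w₀ ∧ σ g w₁ = (t * c⁻¹) • w₁ := by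
    intro c t hc ht
    obtain ⟨g, hg0, hg1⟩ := hdiag c hc
    rcases ht with rfl | rfl
    · exact ⟨g, hg0, by rw [one_mul]; exact hg1⟩
    obtain ⟨⟨k, hk⟩, hk1⟩ := exists_ne_of_card (α := stab σ w₀) (by rw [hhalf _ hw00]; omega) 1
    obtain ⟨α, β, -, -, hβ⟩ := hD0 k (hK k hk)
    rcases hsq k hk β hβ with rfl | rfl
    · exact absurd (Subtype.ext (hext k hk (by rw [hβ, one_smul]))) hk1
    · have hk0 : σ k w₀ = w₀ := hk
      exact ⟨k * g, by rw [rho_mul, hg0, hlin, hk0], by rw [rho_mul, hg1, hlin, hβ, smul_smul, mul_comm]⟩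
  have hprod : ∀ g : G, ∀ α β : ZMod q, α ≠ 0 → σ g w₀ = α • w₀ → σ g w₁ = β • w₁ →
      α * β = 1 ∨ α * β = -1 := by
    intro g α β hα h0 h1
    obtain ⟨d, hd0, hd1⟩ := hdiag α⁻¹ (inv_ne_zero hα)
    refine hsq (d * g) (by rw [rho_mul, h0, hlin, hd0, smul_smul, mul_inv_cancel₀ hα, one_smul]) _ ?_
    rw [rho_mul, h1, hlin, hd1, inv_inv, smul_smul, mul_comm]
  -- coordinates of the maps
  have hmd : ∀ (g : G) (α β : ZMod q), σ g w₀ = α • w₀ → σ g w₁ = β • w₁ →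
      ∀ v, e.symm.trans ((ρ g).trans e) v = ![α * v 0, β * v 1] := by
    intro g α β h0 h1 v
    apply e.symm.injective
    rw [LinearEquiv.trans_apply, LinearEquiv.trans_apply, LinearEquiv.symm_apply_apply, ← hσ, he, he]
    rw [map_add, hlin, hlin, h0, h1, smul_smul, smul_smul, mul_comm α, mul_comm β]
    simp
  have hma : ∀ (g : G) (α β : ZMod q), σ g w₀ = α • w₁ → σ g w₁ = β • w₀ →
      ∀ v, e.symm.trans ((ρ g).trans e) v = ![β * v 1, α * v 0] := by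
    intro g α β h0 h1 v
    apply e.symm.injective
    rw [LinearEquiv.trans_apply, LinearEquiv.trans_apply, LinearEquiv.symm_apply_apply, ← hσ, he, he]
    rw [map_add, hlin, hlin, h0, h1, smul_smul, smul_smul, add_comm]
    simp
    rw [mul_comm α, mul_comm β]
  refine ⟨e, fun f => ⟨?_, ?_⟩⟩
  · rintro ⟨g, rfl⟩
    rcases hcases g with h | h
    · obtain ⟨α, β, hα, h0, h1⟩ := hD0 g h
      refine ⟨α, α * β, hα, hprod g α β hα h0 h1, Or.inl fun v => ?_⟩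
      rw [hmd g α β h0 h1, show α * β * α⁻¹ = β by field_simp]
    · obtain ⟨α, β, hα, h0, h1⟩ := hA0 g h
      have hpr := hprod (y * g) α β hα (by rw [rho_mul, h0, hlin, hy1]) (by rw [rho_mul, h1, hlin, hy0])
      refine ⟨α, α * β, hα, hpr, Or.inr fun v => ?_⟩
      rw [hma g α β h0 h1, show α * β * α⁻¹ = β by field_simp]
  · rintro ⟨a, t, ha, ht, hf | hf⟩
    · obtain ⟨g, h0, h1⟩ := hdiag' a t ha ht
      exact ⟨g, LinearEquiv.ext fun v => by rw [hf, hmd g _ _ h0 h1]⟩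
    · obtain ⟨g, h0, h1⟩ := hdiag' a t ha ht
      refine ⟨y * g, LinearEquiv.ext fun v => ?_⟩
      rw [hf, hma (y * g) a (t * a⁻¹) (by rw [rho_mul, h0, hlin, hy0]) (by rw [rho_mul, h1, hlin, hy1])]

end Cfsg.Agent.Lib.HalfTransP
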