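import Cfsg.Agent.Lib.HalfTransP.Basic

/-!
Half-transitive actions with a normal elementary subgroup `⟨b, z⟩` of order `p ^ 2`.
-/

set_option autoImplicit false

namespace Cfsg.Agent.Lib.HalfTransP

open Cfsg.Agent.Lib.AvoidConj

universe u v

variable {G : Type u} [Group G] [Finite G] {V : Type v} [AddCommGroup V] [Finite V]

/-- A normal plane `⟨b, z⟩` with `z` central and without fixed points. -/
structure Plane (p : ℕ) (ρ : G →* AddMonoid.End V) (b z : G) : Prop where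
  bp : b ^ p = 1
  zp : z ^ p = 1
  central : ∀ g : G, g * z = z * g
  free : ∀ w : V, ρ z w = w → w = 0
  conj : ∀ g : G, ∃ j : ℕ, g * b * g⁻¹ = b * z ^ j
  move : ∃ u : G, u * b * u⁻¹ = b * z
  cop : p.Coprime (Nat.card V)
  inj : ∀ g : G, ρ g = 1 → g = 1

namespace Plane

variable {p : ℕ} [hp : Fact p.Prime] {ρ : G →* AddMonoid.End V} {b z : G} (D : Plane p ρ b z)
include D

theorem comm : Commute b z := D.central b

theorem pow_line (i : ℕ) {u : G} (hu : u * b * u⁻¹ = b * z) : u ^ i * b * (u ^ i)⁻¹ = b * z ^ i := by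
  induction i with
  | zero => simp
  | succ i ih =>
    have h1 : u ^ (i + 1) * b * (u ^ (i + 1))⁻¹ = u * (u ^ i * b * (u ^ i)⁻¹) * u⁻¹ := by
      rw [pow_succ']; group
    rw [h1, ih, show u * (b * z ^ i) * u⁻¹ = u * b * u⁻¹ * (u * z ^ i * u⁻¹) by group, hu,
      ((Commute.pow_right (D.central u) i)).eq, mul_inv_cancel_right, mul_assoc, ← pow_succ']

theorem fixed_move {g : G} {i j : ℕ} (hg : g * b * g⁻¹ = b * z ^ j) {w : V} (hw : ρ (b * z ^ i) w = w) :
    ρ (b * z ^ (j + i)) (ρ g w) = ρ g w := by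
  have h : b * z ^ (j + i) * g = g * (b * z ^ i) := by
    rw [pow_add, ← mul_assoc b, ← hg, mul_assoc (g * b * g⁻¹), ((Commute.pow_right (D.central g) i)).symm.eq]
    group
  rw [← rho_mul, h, rho_mul, hw]

theorem kill {i j : ℕ} (hij : ¬ i ≡ j [MOD p]) {w : V} (hw : ρ (b * z ^ j) w = w) :
    lineSum p ρ (b * z ^ i) w = 0 :=
  lineSum_kill ρ D.comm D.bp D.zp D.free hij hw

theorem nsmul_inj {v w : V} (h : p • v = p • w) : v = w :=
  sub_eq_zero.1 (nsmul_cancel_of_coprime D.cop (by rw [nsmul_sub, h, sub_self]))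

theorem zpow_line {j : ℕ} : b * z ^ j = b * z ^ (j % p) := by
  rw [← pow_eq_pow_mod j D.zp]

/-- An element fixing a nonzero fixed point of `b` commutes with `b`. -/
theorem stab_comm {g : G} {w : V} (hw : ρ b w = w) (hw0 : w ≠ 0) (hg : ρ g w = w) : g * b = b * g := by
  obtain ⟨j, hj⟩ := D.conj g
  have h := D.fixed_move (i := 0) hj (w := w) (by rwa [pow_zero, mul_one])
  rw [hg, add_zero] at h
  by_cases hd : p ∣ j
  · rw [D.zpow_line, Nat.mod_eq_zero_of_dvd hd, pow_zero, mul_one] at hj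
    exact mul_inv_eq_iff_eq_mul.1 hj
  · exfalso
    have hne : ¬ j ≡ 0 [MOD p] := fun e => hd (Nat.modEq_zero_iff_dvd.1 e)
    have h1 := D.kill hne (w := w) (by rwa [pow_zero, mul_one])
    rw [lineSum_of_fixed ρ h] at h1
    exact hw0 (D.nsmul_inj (by rw [h1, nsmul_zero]))

/-- An element commuting with `b` that fixes a sum fixes the summands. -/
theorem split {g : G} (hgb : g * b = b * g) {i : ℕ} (hi : ¬ p ∣ i) {w x : V} (hw : ρ b w = w)
    (hx : ρ (b * z ^ i) x = x) (h : ρ g (w + x) = w + x) : ρ g w = w ∧ ρ g x = x := by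
  have hne : ¬ 0 ≡ i [MOD p] := fun e => hi (Nat.modEq_zero_iff_dvd.1 e.symm)
  have hgj : g * b * g⁻¹ = b * z ^ 0 := by rw [pow_zero, mul_one, hgb, mul_inv_cancel_right]
  have hw' : ρ (b * z ^ 0) w = w := by rwa [pow_zero, mul_one]
  have h1 := D.fixed_move (i := 0) hgj hw'
  rw [add_zero] at h1
  have h2 := D.fixed_move hgj hx
  rw [zero_add] at h2
  have e := congrArg (lineSum p ρ (b * z ^ 0)) h
  rw [map_add, lineSum_add, lineSum_add, lineSum_of_fixed ρ h1, D.kill hne h2, lineSum_of_fixed ρ hw',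
    D.kill hne hx, add_zero, add_zero] at e
  have hgw := D.nsmul_inj e
  refine ⟨hgw, ?_⟩
  rw [map_add, hgw] at h
  exact add_left_cancel h

variable {s : ℕ} (hhalf : ∀ v : V, v ≠ 0 → Nat.card (stab ρ v) = s)
include hhalf

/-- If every element fixing `w + x` commutes with `b`, the stabilisers of `w` and `x` agree. -/
theorem stab_eq {i : ℕ} (hi : ¬ p ∣ i) {w x : V} (hw : ρ b w = w) (hw0 : w ≠ 0)
    (hx : ρ (b * z ^ i) x = x) (hx0 : x ≠ 0) (hall : ∀ g : G, ρ g (w + x) = w + x → g * b = b * g) :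
    stab ρ w = stab ρ x := by
  have hne : ¬ i ≡ 0 [MOD p] := fun e => hi (Nat.modEq_zero_iff_dvd.1 e)
  have hv : w + x ≠ 0 := fun h => hx0 (by
    have e := congrArg (lineSum p ρ (b * z ^ i)) h
    rw [lineSum_add, D.kill hne (w := w) (by rwa [pow_zero, mul_one]), lineSum_of_fixed ρ hx, zero_add] at e
    refine D.nsmul_inj (e.trans ?_)
    rw [nsmul_zero, lineSum_of_fixed ρ (map_zero _), nsmul_zero])
  have h1 : stab ρ (w + x) = stab ρ w := Subgroup.eq_of_le_of_card_ge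
    (fun g hg => (D.split (hall g hg) hi hw hx hg).1) (by rw [hhalf _ hw0, hhalf _ hv])
  have h2 : stab ρ (w + x) = stab ρ x := Subgroup.eq_of_le_of_card_ge
    (fun g hg => (D.split (hall g hg) hi hw hx hg).2) (by rw [hhalf _ hx0, hhalf _ hv])
  exact h1.symm.trans h2

omit hhalf in
theorem exists_fixed (hnt : ∃ v : V, v ≠ 0) (i : ℕ) : ∃ w : V, w ≠ 0 ∧ ρ (b * z ^ i) w = w := by
  obtain ⟨v, hv⟩ := hnt
  obtain ⟨j, w, hw0, hw⟩ : ∃ j : ℕ, ∃ w : V, w ≠ 0 ∧ ρ (b * z ^ j) w = w := by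
    by_contra hcon
    push_neg at hcon
    apply hv
    refine nsmul_cancel_of_coprime D.cop ?_
    have hid := line_identity ρ D.comm D.bp D.zp v
    have hSe : ∑ k ∈ Finset.range p, ρ (z ^ k) v = 0 := D.free _ (sum_range_pow_fixed ρ D.zp v)
    rw [hSe] at hid
    simp only [map_zero, Finset.sum_const_zero, add_zero] at hid
    rw [← hid]
    refine Finset.sum_eq_zero fun k _ => ?_
    by_contra hne
    exact hcon k _ hne (lineSum_fixed ρ (line_pow D.comm D.bp D.zp k) v)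
  obtain ⟨u, hu⟩ := D.move
  refine ⟨ρ (u ^ (p * j - j + i)) w, fun h => hw0 ?_, ?_⟩
  · rw [← rho_inv_cancel ρ (u ^ (p * j - j + i)) w, h, map_zero]
  have h := D.fixed_move (D.pow_line (p * j - j + i) hu) hw
  rwa [show p * j - j + i + j = p * j + i by have := Nat.le_mul_of_pos_left j hp.out.pos; omega,
    pow_add, pow_mul, D.zp, one_pow, one_mul] at h

/-- For odd `p` all stabilisers are trivial. -/
theorem semi_odd (hp2 : p ≠ 2) (hnt : ∃ v : V, v ≠ 0) : Semi ρ := by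
  have key : ∀ i : ℕ, ¬ p ∣ i → ∀ w x : V, ρ b w = w → w ≠ 0 → ρ (b * z ^ i) x = x → x ≠ 0 →
      stab ρ w = stab ρ x := by
    intro i hi w x hw hw0 hx hx0
    refine D.stab_eq hhalf hi hw hw0 hx hx0 fun g hg => ?_
    obtain ⟨j, hj⟩ := D.conj g
    by_cases hd : p ∣ j
    · rw [D.zpow_line, Nat.mod_eq_zero_of_dvd hd, pow_zero, mul_one] at hj
      exact mul_inv_eq_iff_eq_mul.1 hj
    exfalso
    have hj0 : ¬ j ≡ 0 [MOD p] := fun e => hd (Nat.modEq_zero_iff_dvd.1 e)
    have hw' : ρ (b * z ^ 0) w = w := by rwa [pow_zero, mul_one]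
    have h1 := D.fixed_move (i := 0) hj hw'
    rw [add_zero] at h1
    have h2 := D.fixed_move hj hx
    have hji : ¬ j ≡ j + i [MOD p] := fun e => hi (Nat.modEq_zero_iff_dvd.1 (Nat.ModEq.add_left_cancel' j e.symm))
    by_cases hjeq : j ≡ i [MOD p]
    · have hi0 : ¬ j + i ≡ 0 [MOD p] := by
        intro e
        have e2 : i + i ≡ 0 [MOD p] := (hjeq.symm.add_right i).trans e
        rw [← two_mul] at e2
        rcases (hp.out.dvd_mul).1 (Nat.modEq_zero_iff_dvd.1 e2) with h | h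
        · exact hp2 ((Nat.prime_dvd_prime_iff_eq hp.out Nat.prime_two).1 h)
        · exact hi h
      have hii : ¬ j + i ≡ i [MOD p] := fun e => hj0 (Nat.ModEq.add_right_cancel' i (by simpa using e))
      have e := congrArg (lineSum p ρ (b * z ^ (j + i))) hg
      rw [map_add, lineSum_add, lineSum_add, D.kill (fun e => hji e.symm) h1, lineSum_of_fixed ρ h2,
        D.kill hi0 hw', D.kill hii hx, add_zero, zero_add] at e
      refine hx0 ?_
      rw [← rho_inv_cancel ρ g x, D.nsmul_inj (e.trans (nsmul_zero p).symm), map_zero]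
    · have e := congrArg (lineSum p ρ (b * z ^ j)) hg
      rw [map_add, lineSum_add, lineSum_add, lineSum_of_fixed ρ h1, D.kill hji h2,
        D.kill hj0 hw', D.kill hjeq hx, add_zero, add_zero] at e
      refine hw0 ?_
      rw [← rho_inv_cancel ρ g w, D.nsmul_inj (e.trans (nsmul_zero p).symm), map_zero]
  obtain ⟨w₀, hw00, hw0'⟩ := D.exists_fixed hnt 0
  rw [pow_zero, mul_one] at hw0'
  obtain ⟨x₁, hx10, hx1⟩ := D.exists_fixed hnt 1
  have h1 : ¬ p ∣ 1 := hp.out.not_dvd_one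
  refine semi_of_fixes_all ρ D.inj hhalf hw00 fun g hg v =>
    fixes_of_lines ρ D.cop D.comm D.bp D.zp D.free (fun i hi w hw => ?_) v
  by_cases hw00' : w = 0
  · rw [hw00', map_zero]
  by_cases hi0 : i = 0
  · subst hi0
    rw [pow_zero, mul_one] at hw
    have : stab ρ w = stab ρ w₀ := (key 1 h1 w x₁ hw hw00' hx1 hx10).trans (key 1 h1 w₀ x₁ hw0' hw00 hx1 hx10).symm
    rw [← mem_stab, this]; exact hg
  · have hnd : ¬ p ∣ i := Nat.not_dvd_of_pos_of_lt (Nat.pos_of_ne_zero hi0) hi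
    rw [← mem_stab, ← key i hnd w₀ w hw0' hw00 hw hw00']
    exact hg

/-- For `p = 2`: trivial stabilisers, or transitivity on the fixed points of `b`. -/
theorem semi_or_transitive (hp2 : p = 2) :
    Semi ρ ∨ ∀ w w' : V, ρ b w = w → w ≠ 0 → ρ b w' = w' → w' ≠ 0 →
      ∃ g : G, g * b = b * g ∧ ρ g w = w' := by
  by_contra hcon
  push_neg at hcon
  obtain ⟨hns, w, w', hw, hw0, hw', hw'0, hno⟩ := hcon
  obtain ⟨u, hu⟩ := D.move
  have h1 : ¬ p ∣ 1 := hp.out.not_dvd_one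
  let Rel : V → V → Prop := fun a c => ∃ g : G, g * b = b * g ∧ ρ g a = c
  have hsymm : ∀ {a c : V}, Rel a c → Rel c a := fun {a c} ⟨g, hg, hgc⟩ =>
    ⟨g⁻¹, (Commute.inv_left hg).eq, by rw [← hgc, rho_inv_cancel]⟩
  have htrans : ∀ {a c d : V}, Rel a c → Rel c d → Rel a d := fun {a c d} ⟨g, hg, hgc⟩ ⟨h, hh, hhd⟩ =>
    ⟨h * g, (Commute.mul_left hh hg).eq, by rw [rho_mul, hgc, hhd]⟩
  have hU : ∀ {c : V}, ρ b c = c → ρ (b * z ^ 1) (ρ u c) = ρ u c := fun {c} hc => by
    simpa using D.fixed_move (i := 0) (j := 1) (g := u) (by rw [pow_one]; exact hu) (w := c)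
      (by rwa [pow_zero, mul_one])
  have hU0 : ∀ {c : V}, c ≠ 0 → ρ u c ≠ 0 := fun {c} hc h => hc (by rw [← rho_inv_cancel ρ u c, h, map_zero])
  -- stabilisers of unrelated points
  have hP : ∀ a c : V, ρ b a = a → a ≠ 0 → ρ b c = c → c ≠ 0 → ¬ Rel a c → stab ρ a = stab ρ (ρ u c) := by
    intro a c ha ha0 hc hc0 hn
    refine D.stab_eq hhalf h1 ha ha0 (hU hc) (hU0 hc0) fun g hg => ?_
    obtain ⟨j, hj⟩ := D.conj g
    by_cases hd : p ∣ j
    · rw [D.zpow_line, Nat.mod_eq_zero_of_dvd hd, pow_zero, mul_one] at hj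
      exact mul_inv_eq_iff_eq_mul.1 hj
    exfalso
    have hj1 : g * b * g⁻¹ = b * z ^ 1 := by
      rw [hj, D.zpow_line]; congr 2
      subst hp2
      omega
    have ha' : ρ (b * z ^ 0) a = a := by rwa [pow_zero, mul_one]
    have e1 : ρ (b * z ^ 1) (ρ g a) = ρ g a := by simpa using D.fixed_move (i := 0) hj1 ha'
    have e2 : ρ (b * z ^ (1 + 1)) (ρ g (ρ u c)) = ρ g (ρ u c) := D.fixed_move hj1 (hU hc)
    have hm : ¬ 1 ≡ 0 [MOD p] := fun e => h1 (Nat.modEq_zero_iff_dvd.1 e)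
    have hm' : ¬ 1 ≡ 1 + 1 [MOD p] := fun e => hm (Nat.ModEq.add_left_cancel' 1 (by simpa using e.symm))
    have e := congrArg (lineSum p ρ (b * z ^ 1)) hg
    rw [map_add, lineSum_add, lineSum_add, lineSum_of_fixed ρ e1, D.kill hm' e2, D.kill hm ha',
      lineSum_of_fixed ρ (hU hc), add_zero, zero_add] at e
    have hgu := D.nsmul_inj e
    refine hn ⟨u⁻¹ * g, ?_, by rw [rho_mul, hgu, rho_inv_cancel]⟩
    have hgb : g * b = b * z * g := by rw [pow_one] at hj1; rw [← hj1]; group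
    calc u⁻¹ * g * b = u⁻¹ * (g * b) := by group
      _ = u⁻¹ * (b * z) * g := by rw [hgb]; group
      _ = u⁻¹ * (u * b * u⁻¹) * g := by rw [hu]
      _ = b * (u⁻¹ * g) := by group
  set M := stab ρ w with hM
  set L := stab ρ (ρ u w) with hL
  have hA : ∀ a : V, Rel w a → ρ b a = a ∧ a ≠ 0 := by
    rintro a ⟨g, hg, rfl⟩
    refine ⟨?_, fun h => hw0 (by rw [← rho_inv_cancel ρ g w, h, map_zero])⟩
    rw [← rho_mul, ← hg, rho_mul, hw]
  have hww' : ¬ Rel w w' := fun ⟨g, hg, hgw⟩ => hno g hg hgw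
  -- the orbit of `w`
  have hAM : ∀ a : V, Rel w a → stab ρ a = M := fun a ha =>
    (hP a w' (hA a ha).1 (hA a ha).2 hw' hw'0 (fun e => hww' (htrans ha e))).trans
      (hP w w' hw hw0 hw' hw'0 hww').symm
  have hAuL : ∀ a : V, Rel w a → stab ρ (ρ u a) = L := fun a ha =>
    (hP w' a hw' hw'0 (hA a ha).1 (hA a ha).2 (fun e => hww' (htrans ha (hsymm e)))).symm.trans
      (hP w' w hw' hw'0 hw hw0 (fun e => hww' (hsymm e)))
  have hCL : ∀ c : V, ρ b c = c → c ≠ 0 → ¬ Rel w c → stab ρ c = L := fun c hc hc0 hn =>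
    hP c w hc hc0 hw hw0 (fun e => hn (hsymm e))
  have hCuM : ∀ c : V, ρ b c = c → c ≠ 0 → ¬ Rel w c → stab ρ (ρ u c) = M := fun c hc hc0 hn =>
    (hP w c hw hw0 hc hc0 hn).symm
  -- one side spans
  let H : AddSubgroup V := AddSubgroup.closure {a | Rel w a}
  -- conclusion from a subgroup fixing both blocks
  have hfin : ∀ S : Subgroup G, S = M → (∀ c, ρ b c = c → ∀ g ∈ S, ρ g c = c) →
      (∀ c, ρ b c = c → ∀ g ∈ S, ρ g (ρ u c) = ρ u c) → False := by
    intro S hS h0 h1'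
    refine hns (semi_of_fixes_all ρ D.inj hhalf hw0 fun g hg v =>
      fixes_of_lines ρ D.cop D.comm D.bp D.zp D.free (fun i hi x hx => ?_) v)
    have hgS : g ∈ S := hS ▸ hg
    rcases (show i = 0 ∨ i = 1 by omega) with rfl | rfl
    · rw [pow_zero, mul_one] at hx; exact h0 x hx g hgS
    · have hxc : ρ b (ρ u⁻¹ x) = ρ u⁻¹ x := by
        rw [← rho_mul, show b * u⁻¹ = u⁻¹ * (u * b * u⁻¹) by group, hu, rho_mul]
        rw [pow_one] at hx
        rw [hx]
      have := h1' _ hxc g hgS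
      rwa [rho_cancel_inv] at this
  by_cases hspan : ∀ c : V, ρ b c = c → c ∈ H
  · have hMfix : ∀ c, ρ b c = c → ∀ g ∈ M, ρ g c = c := by
      intro c hc g hg
      have hle : H ≤ fixedOf ρ (M : Set G) := (AddSubgroup.closure_le _).2 fun a ha k hk => by
        rw [← mem_stab, hAM a ha]; exact hk
      exact hle (hspan c hc) g hg
    have hML : M = L := by
      rw [← hCL w' hw' hw'0 hww']
      exact Subgroup.eq_of_le_of_card_ge (fun g hg => hMfix w' hw' g hg) (by rw [hhalf _ hw'0, hhalf _ hw0])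
    refine hfin M rfl hMfix fun c hc g hg => ?_
    have hle : H ≤ (fixedOf ρ (M : Set G)).comap (ρ u) := (AddSubgroup.closure_le _).2 fun a ha k hk => by
      exact (hAuL a ha).ge (hML.le hk)
    exact hle (hspan c hc) g hg
  · push_neg at hspan
    obtain ⟨h₀, hh₀, hh₀H⟩ := hspan
    -- the complement spans
    have hgen : ∀ (S : AddSubgroup V), (∀ c, ρ b c = c → c ≠ 0 → ¬ Rel w c → c ∈ S) →
        ∀ c, ρ b c = c → c ∈ S := by
      intro S hS
      have hout : ∀ c, ρ b c = c → c ∉ H → c ∈ S := fun c hc hcH =>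
        hS c hc (fun e => hcH (e ▸ zero_mem H)) (fun e => hcH (AddSubgroup.subset_closure e))
      intro c hc
      by_cases hcH : c ∈ H
      · have h2 : c + h₀ ∈ S := hout _ (by rw [map_add, hc, hh₀]) (fun e => hh₀H (by simpa using sub_mem e hcH))
        simpa using sub_mem h2 (hout _ hh₀ hh₀H)
      · exact hout c hc hcH
    have hLfix : ∀ c, ρ b c = c → ∀ g ∈ L, ρ g c = c := fun c hc g hg =>
      hgen (fixedOf ρ (L : Set G)) (fun d hd hd0 hn k hk => by rw [← mem_stab, hCL d hd hd0 hn]; exact hk) c hc g hg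
    have hML : L = M := Subgroup.eq_of_le_of_card_ge (fun g hg => hLfix w hw g hg)
      (by rw [hhalf _ hw0, hhalf _ (hU0 hw0)])
    refine hfin L hML hLfix fun c hc g hg => ?_
    exact hgen ((fixedOf ρ (L : Set G)).comap (ρ u))
      (fun d hd hd0 hn k hk => (hCuM d hd hd0 hn).ge (hML.le hk)) c hc g hg

end Plane

end Cfsg.Agent.Lib.HalfTransP
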